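import Cfsg.Agent.Lib.Helper13.Asch.Defs
import Cfsg.Agent.Lib.Helper96.Asch.L0b

set_option autoImplicit false

namespace Cfsg.Agent.Lib.Helper35.Asch

open Cfsg Cfsg.Geo Matrix Cfsg.Agent.Lib.Helper13.Asch
open scoped Kronecker MatrixGroups

variable {ι : Type} [Fintype ι] [DecidableEq ι] {F : Type*} [Field F]

theorem exists_sigma [Fintype F] (F₀ : Subfield F) (hF₀ : F₀ ≠ ⊤) :
    ∃ (F₁ : Subfield F) (r : ℕ) (σ : F →+* F), r.Prime ∧ Fintype.card F = Nat.card F₁ ^ r ∧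
      (∀ x ∈ F₀, σ x = x) ∧ (∀ x, σ x = x → x ∈ F₁) := by
  have hcard : Nat.card (F ≃ₐ[F₀] F) = Module.finrank F₀ F := IsGalois.card_aut_eq_finrank F₀ F
  have hne : Nat.card (F ≃ₐ[F₀] F) ≠ 1 := by
    rw [hcard]
    intro h1
    apply hF₀
    have h2 := Subalgebra.bot_eq_top_of_finrank_eq_one h1
    rw [eq_top_iff]
    intro x _
    have h3 : x ∈ (⊥ : Subalgebra F₀ F) := by rw [h2]; exact Algebra.mem_top
    obtain ⟨y, rfl⟩ := Algebra.mem_bot.mp h3
    exact y.2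
  obtain ⟨r, hr, hdvd⟩ := Nat.exists_prime_and_dvd hne
  haveI : Fact r.Prime := ⟨hr⟩
  obtain ⟨τ, hτ⟩ := exists_prime_orderOf_dvd_card' r hdvd
  let K₁ : IntermediateField F₀ F := IntermediateField.fixedField (Subgroup.zpowers τ)
  have hfin : Module.finrank K₁ F = r := by
    rw [IntermediateField.finrank_fixedField_eq_card, Nat.card_zpowers, hτ]
  refine ⟨K₁.toSubfield, r, (τ : F ≃ₐ[F₀] F).toAlgHom.toRingHom, hr, ?_, ?_, ?_⟩
  · rw [← Nat.card_eq_fintype_card, Module.natCard_eq_pow_finrank (K := K₁) (V := F), hfin]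
    rfl
  · intro x hx
    exact τ.commutes ⟨x, hx⟩
  · intro x hx
    change x ∈ K₁
    rw [IntermediateField.mem_fixedField_iff]
    have h1 : Subgroup.zpowers τ ≤ MulAction.stabilizer (F ≃ₐ[F₀] F) x := by
      rw [Subgroup.zpowers_le, MulAction.mem_stabilizer_iff]
      exact hx
    intro f hf
    exact MulAction.mem_stabilizer_iff.mp (h1 hf)

/-- L8 -/
theorem subfield_of_realisable [Fintype F] (H N : Subgroup (GL ι F)) (hN : Nrm H N)
    (henv : env N = ⊤) (F₀ : Subfield F) (hF₀ : F₀ ≠ ⊤) (hr : RealisableOver F₀ (matrixSet N)) :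
    ∃ (F₁ : Subfield F) (r : ℕ) (P : GL ι F), r.Prime ∧ Fintype.card F = Nat.card F₁ ^ r ∧
      H ≤ subfieldSubgroup F₁ P := by
  obtain ⟨F₁, r, σ, hrp, hcard, hσ0, hσ1⟩ := exists_sigma F₀ hF₀
  obtain ⟨B, hB⟩ := hr
  refine ⟨F₁, r, B⁻¹, hrp, hcard, ?_⟩
  intro h hh
  by_cases hι : IsEmpty ι
  · have : h = 1 := by
      apply Units.ext
      ext i
      exact (hι.false i).elim
    rw [this]; exact Subgroup.one_mem _
  rw [not_isEmpty_iff] at hι
  -- `σ` fixes the conjugates of `N`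
  have hfix : ∀ s ∈ N, σ.mapMatrix ((B * s * B⁻¹ : GL ι F) : Matrix ι ι F) =
      ((B * s * B⁻¹ : GL ι F) : Matrix ι ι F) := by
    intro s hs
    ext i j
    rw [RingHom.mapMatrix_apply, Matrix.map_apply]
    apply hσ0
    have := hB (s : Matrix ι ι F) ⟨s, hs, rfl⟩ i j
    simpa [Units.val_mul] using this
  obtain ⟨h', hh'⟩ : ∃ h' : GL ι F, h' = B * h * B⁻¹ := ⟨_, rfl⟩
  obtain ⟨T, hT⟩ : ∃ T : Matrix ι ι F, T = σ.mapMatrix (h' : Matrix ι ι F) := ⟨_, rfl⟩
  obtain ⟨T', hT'⟩ : ∃ T' : Matrix ι ι F, T' = σ.mapMatrix ((h'⁻¹ : GL ι F) : Matrix ι ι F) := ⟨_, rfl⟩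
  have hTT' : T' * T = 1 := by
    rw [hT, hT', ← map_mul, ← Units.val_mul, inv_mul_cancel, Units.val_one, map_one]
  -- key commutation
  have hkey : ∀ s ∈ N, T * ((B * s * B⁻¹ : GL ι F) : Matrix ι ι F) =
      (h' : Matrix ι ι F) * ((B * s * B⁻¹ : GL ι F) : Matrix ι ι F) *
        ((h'⁻¹ : GL ι F) : Matrix ι ι F) * T := by
    intro s hs
    have h1 := hfix (h * s * h⁻¹) (hN h hh s hs)
    have h2 : B * (h * s * h⁻¹) * B⁻¹ = h' * (B * s * B⁻¹) * h'⁻¹ := by rw [hh']; group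
    rw [h2, Units.val_mul, Units.val_mul, map_mul, map_mul, hfix s hs, ← hT, ← hT'] at h1
    rw [← h1, mul_assoc (T * _) T' T, hTT', mul_one]
  obtain ⟨c, hc⟩ := Cfsg.Agent.Lib.Helper96.Asch.scalar_of_commute henv
    (((B⁻¹ * h'⁻¹ : GL ι F) : Matrix ι ι F) * T * (B : Matrix ι ι F)) (by
    intro s hs
    have h1 := hkey s hs
    have e1 : (s : Matrix ι ι F) = ((B⁻¹ : GL ι F) : Matrix ι ι F) *
        ((B * s * B⁻¹ : GL ι F) : Matrix ι ι F) * (B : Matrix ι ι F) := by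
      rw [← Units.val_mul, ← Units.val_mul]; congr 1; group
    have e2 : (B : Matrix ι ι F) * ((B⁻¹ : GL ι F) : Matrix ι ι F) = 1 := by
      rw [← Units.val_mul, mul_inv_cancel, Units.val_one]
    have e3 : ((h'⁻¹ : GL ι F) : Matrix ι ι F) * (h' : Matrix ι ι F) = 1 := by
      rw [← Units.val_mul, inv_mul_cancel, Units.val_one]
    set S : Matrix ι ι F := ((B * s * B⁻¹ : GL ι F) : Matrix ι ι F) with hS
    rw [e1, Units.val_mul]
    calc ((B⁻¹ : GL ι F) : Matrix ι ι F) * ((h'⁻¹ : GL ι F) : Matrix ι ι F) * T * (B : Matrix ι ι F) *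
          (((B⁻¹ : GL ι F) : Matrix ι ι F) * S * (B : Matrix ι ι F))
        = ((B⁻¹ : GL ι F) : Matrix ι ι F) * ((h'⁻¹ : GL ι F) : Matrix ι ι F) * T *
          ((B : Matrix ι ι F) * ((B⁻¹ : GL ι F) : Matrix ι ι F)) * S * (B : Matrix ι ι F) := by
          simp only [mul_assoc]
      _ = ((B⁻¹ : GL ι F) : Matrix ι ι F) * ((h'⁻¹ : GL ι F) : Matrix ι ι F) * (T * S) *
          (B : Matrix ι ι F) := by rw [e2, mul_one]; simp only [mul_assoc]
      _ = ((B⁻¹ : GL ι F) : Matrix ι ι F) * (((h'⁻¹ : GL ι F) : Matrix ι ι F) * (h' : Matrix ι ι F)) * S *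
          ((h'⁻¹ : GL ι F) : Matrix ι ι F) * T * (B : Matrix ι ι F) := by rw [h1]; simp only [mul_assoc]
      _ = ((B⁻¹ : GL ι F) : Matrix ι ι F) * S * ((B : Matrix ι ι F) * ((B⁻¹ : GL ι F) : Matrix ι ι F)) *
          ((h'⁻¹ : GL ι F) : Matrix ι ι F) * T * (B : Matrix ι ι F) := by rw [e3, e2, mul_one, mul_one]
      _ = _ := by simp only [mul_assoc])
  have hTc : T = c • (h' : Matrix ι ι F) := by
    have e2 : (B : Matrix ι ι F) * ((B⁻¹ : GL ι F) : Matrix ι ι F) = 1 := by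
      rw [← Units.val_mul, mul_inv_cancel, Units.val_one]
    have e4 : (h' : Matrix ι ι F) * ((h'⁻¹ : GL ι F) : Matrix ι ι F) = 1 := by
      rw [← Units.val_mul, mul_inv_cancel, Units.val_one]
    calc T = ((h' : Matrix ι ι F) * ((h'⁻¹ : GL ι F) : Matrix ι ι F)) * T := by rw [e4, one_mul]
      _ = (h' : Matrix ι ι F) * (((B : Matrix ι ι F) * ((B⁻¹ : GL ι F) : Matrix ι ι F)) *
          ((h'⁻¹ : GL ι F) : Matrix ι ι F) * T * ((B : Matrix ι ι F) * ((B⁻¹ : GL ι F) : Matrix ι ι F))) := by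
          rw [e2, one_mul, mul_one, mul_assoc]
      _ = (h' : Matrix ι ι F) * ((B : Matrix ι ι F) * (((B⁻¹ * h'⁻¹ : GL ι F) : Matrix ι ι F) * T *
          (B : Matrix ι ι F)) * ((B⁻¹ : GL ι F) : Matrix ι ι F)) := by
          rw [Units.val_mul]; simp only [mul_assoc]
      _ = _ := by
          rw [hc, Matrix.mul_smul, mul_one, Matrix.smul_mul, e2, Matrix.mul_smul, mul_one]
  -- a nonzero entry
  obtain ⟨i, j, hij⟩ : ∃ i j, (h' : Matrix ι ι F) i j ≠ 0 := by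
    by_contra hcon
    push Not at hcon
    have h0 : (h' : Matrix ι ι F) = 0 := by ext i j; exact hcon i j
    have e4 : (h' : Matrix ι ι F) * ((h'⁻¹ : GL ι F) : Matrix ι ι F) = 1 := by
      rw [← Units.val_mul, mul_inv_cancel, Units.val_one]
    rw [h0, zero_mul] at e4
    obtain ⟨i⟩ := hι
    have := congrFun (congrFun e4 i) i
    simp at this
  set ν : F := (h' : Matrix ι ι F) i j with hν
  have hσν : σ ν = c * ν := by
    have := congrFun (congrFun hTc i) j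
    rw [hT, RingHom.mapMatrix_apply, Matrix.map_apply, Matrix.smul_apply, smul_eq_mul] at this
    exact this
  have hc0 : c ≠ 0 := by
    rintro rfl
    rw [zero_mul] at hσν
    exact hij ((map_eq_zero σ).mp hσν)
  set Y : Matrix ι ι F := ν⁻¹ • (h' : Matrix ι ι F) with hY
  have hYmem : ∀ k l, Y k l ∈ F₁ := by
    intro k l
    apply hσ1
    have h1 := congrFun (congrFun hTc k) l
    rw [hT, RingHom.mapMatrix_apply, Matrix.map_apply, Matrix.smul_apply, smul_eq_mul] at h1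
    rw [hY, Matrix.smul_apply, smul_eq_mul, map_mul, map_inv₀, hσν, h1]
    field_simp
  let A₁ : Matrix ι ι F₁ := Matrix.of fun k l => ⟨Y k l, hYmem k l⟩
  have hA₁ : A₁.map F₁.subtype = Y := by
    ext k l; rfl
  have hdet : A₁.det ≠ 0 := by
    intro h0
    have h1 : F₁.subtype A₁.det = Y.det := by
      rw [RingHom.map_det, RingHom.mapMatrix_apply, hA₁]
    rw [h0, map_zero, hY, Matrix.det_smul] at h1
    have h2 : (h' : Matrix ι ι F).det ≠ 0 := by
      have := (Matrix.GeneralLinearGroup.det h').ne_zero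
      simpa using this
    exact (mul_ne_zero (pow_ne_zero _ (inv_ne_zero hij)) h2) h1.symm
  let g₁ : GL ι F₁ := Matrix.GeneralLinearGroup.mkOfDetNeZero A₁ hdet
  let sc : GL ι F := Units.map (Matrix.scalar ι : F →+* Matrix ι ι F).toMonoidHom (Units.mk0 ν hij)
  have hprod : h' = Matrix.GeneralLinearGroup.map (F₁.subtype : F₁ →+* F) g₁ * sc := by
    apply Units.ext
    rw [Units.val_mul]
    have h1 : ((Matrix.GeneralLinearGroup.map (F₁.subtype : F₁ →+* F) g₁ : GL ι F) : Matrix ι ι F) = Y := hA₁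
    have h2 : (sc : Matrix ι ι F) = Matrix.scalar ι ν := rfl
    rw [h1, h2, hY]
    ext k l
    simp [Matrix.mul_apply, Matrix.diagonal_apply]
    field_simp
  refine ⟨h', ?_, ?_⟩
  · rw [hprod]
    exact Subgroup.mul_mem _ (Subgroup.mem_sup_left ⟨g₁, rfl⟩) (Subgroup.mem_sup_right ⟨_, rfl⟩)
  · change B⁻¹ * h' * B⁻¹⁻¹ = h
    rw [hh']; group

end Cfsg.Agent.Lib.Helper35.Asch
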