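import Cfsg.Agent.Lib.Helper13.Asch.Defs

set_option autoImplicit false

namespace Cfsg.Agent.Lib.Helper35.Asch

open Cfsg Cfsg.Geo Matrix Cfsg.Agent.Lib.Helper13.Asch
open scoped Kronecker MatrixGroups

variable {ι : Type} [Fintype ι] [DecidableEq ι] {F : Type*} [Field F]

/-- Kronecker product of invertible matrices, as an invertible matrix -/
def kronGL {a b : ℕ} (x : GL (Fin a) F) (y : GL (Fin b) F) : GL (Fin a × Fin b) F :=
  ⟨(x : Matrix _ _ F) ⊗ₖ (y : Matrix _ _ F), ((x⁻¹ : GL _ F) : Matrix _ _ F) ⊗ₖ ((y⁻¹ : GL _ F) : Matrix _ _ F),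
    by rw [← Matrix.mul_kronecker_mul, ← Units.val_mul, ← Units.val_mul, mul_inv_cancel, mul_inv_cancel,
        Units.val_one, Units.val_one, Matrix.one_kronecker_one],
    by rw [← Matrix.mul_kronecker_mul, ← Units.val_mul, ← Units.val_mul, inv_mul_cancel, inv_mul_cancel,
        Units.val_one, Units.val_one, Matrix.one_kronecker_one]⟩

theorem mem_tensor_iff {a b : ℕ} (e : ι ≃ Fin a × Fin b) (P h : GL ι F) :
    h ∈ tensorProductSubgroup a b e P ↔ ∃ (x : GL (Fin a) F) (y : GL (Fin b) F),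
      (h : Matrix ι ι F) = (P : Matrix ι ι F) *
        Matrix.reindex e.symm e.symm ((x : Matrix _ _ F) ⊗ₖ (y : Matrix _ _ F)) *
        ((P⁻¹ : GL ι F) : Matrix ι ι F) := by
  constructor
  · rintro ⟨_, ⟨g, ⟨x, y, hg⟩, rfl⟩, rfl⟩
    refine ⟨x, y, ?_⟩
    rw [← hg]
    rfl
  · rintro ⟨x, y, hxy⟩
    refine ⟨_, ⟨kronGL x y, ⟨x, y, rfl⟩, rfl⟩, ?_⟩
    apply Units.ext
    rw [hxy]
    rfl

/-- Skolem-Noether for the matrix algebra -/
theorem skolem_noether {a : ℕ} (φ : Matrix (Fin a) (Fin a) F ≃ₐ[F] Matrix (Fin a) (Fin a) F) :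
    ∃ g : GL (Fin a) F, ∀ X, φ X = (g : Matrix _ _ F) * X * ((g⁻¹ : GL _ F) : Matrix _ _ F) := by
  let f : Module.End F (Fin a → F) ≃ₐ[F] Module.End F (Fin a → F) :=
    (Matrix.toLinAlgEquiv' (R := F) (n := Fin a)).symm.trans (φ.trans Matrix.toLinAlgEquiv')
  obtain ⟨T, hT⟩ := f.eq_linearEquivConjAlgEquiv
  let G : Matrix (Fin a) (Fin a) F := LinearMap.toMatrix' T.toLinearMap
  let G' : Matrix (Fin a) (Fin a) F := LinearMap.toMatrix' T.symm.toLinearMap
  have h1 : G * G' = 1 := by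
    rw [← LinearMap.toMatrix'_comp]
    simp
  have h2 : G' * G = 1 := by
    rw [← LinearMap.toMatrix'_comp]
    simp
  refine ⟨⟨G, G', h1, h2⟩, fun X => ?_⟩
  have h3 : f (Matrix.toLin' X) = Matrix.toLin' (φ X) := by
    change Matrix.toLin' (φ (LinearMap.toMatrix' (Matrix.toLin' X))) = _
    rw [LinearMap.toMatrix'_toLin']
  rw [hT, LinearEquiv.conjAlgEquiv_apply] at h3
  have h4 := congrArg LinearMap.toMatrix' h3
  rw [LinearMap.toMatrix'_toLin', LinearMap.toMatrix'_comp, LinearMap.toMatrix'_comp,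
    LinearMap.toMatrix'_toLin'] at h4
  rw [← h4, mul_assoc]
  rfl

end Cfsg.Agent.Lib.Helper35.Asch
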