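import Cfsg.Agent.Lib.Helper13.Asch.Defs
import Cfsg.Agent.Lib.Helper35.Asch.Kron

set_option autoImplicit false

namespace Cfsg.Agent.Lib.Helper35.Asch

open Cfsg Cfsg.Geo Matrix Cfsg.Agent.Lib.Helper13.Asch
open scoped Kronecker MatrixGroups

variable {ι : Type} [Fintype ι] [DecidableEq ι] {F : Type*} [Field F]

theorem kron_one_injective {a b : ℕ} (k0 : Fin b) {X Y : Matrix (Fin a) (Fin a) F}
    (h : X ⊗ₖ (1 : Matrix (Fin b) (Fin b) F) = Y ⊗ₖ (1 : Matrix (Fin b) (Fin b) F)) : X = Y := by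
  ext i j
  have := congrFun (congrFun h (i, k0)) (j, k0)
  simpa [Matrix.kroneckerMap_apply] using this

theorem commute_kron {a b : ℕ} (i0 : Fin a) (N : Matrix (Fin a × Fin b) (Fin a × Fin b) F)
    (hN : ∀ X : Matrix (Fin a) (Fin a) F,
      N * (X ⊗ₖ (1 : Matrix (Fin b) (Fin b) F)) = (X ⊗ₖ (1 : Matrix (Fin b) (Fin b) F)) * N) :
    ∃ c : Matrix (Fin b) (Fin b) F, N = (1 : Matrix (Fin a) (Fin a) F) ⊗ₖ c := by
  refine ⟨Matrix.of fun k l => N (i0, k) (i0, l), ?_⟩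
  ext ⟨i, k⟩ ⟨p, l⟩
  have h := congrFun (congrFun (hN (Matrix.single p i0 1)) (i, k)) (i0, l)
  simp only [Matrix.mul_apply, Fintype.sum_prod_type, Matrix.kroneckerMap_apply, Matrix.single_apply,
    Matrix.one_apply] at h
  simp only [Matrix.kroneckerMap_apply, Matrix.one_apply, Matrix.of_apply]
  have hL : ∑ x : Fin a, ∑ x_1 : Fin b, N (i, k) (x, x_1) *
      ((if p = x ∧ True then (1 : F) else 0) * if x_1 = l then 1 else 0) = N (i, k) (p, l) := by
    rw [Finset.sum_eq_single p, Finset.sum_eq_single l]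
    · simp
    · intro t _ ht; simp [ht]
    · simp
    · intro s _ hs
      apply Finset.sum_eq_zero
      intro t _
      simp [Ne.symm hs]
    · simp
  have hR : ∑ x : Fin a, ∑ x_1 : Fin b,
      ((if p = i ∧ i0 = x then (1 : F) else 0) * if k = x_1 then 1 else 0) * N (x, x_1) (i0, l) =
      (if i = p then 1 else 0) * N (i0, k) (i0, l) := by
    rw [Finset.sum_eq_single i0, Finset.sum_eq_single k]
    · by_cases hip : i = p
      · simp [hip]
      · simp [hip, Ne.symm hip]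
    · intro t _ ht; simp [Ne.symm ht]
    · simp
    · intro s _ hs
      apply Finset.sum_eq_zero
      intro t _
      simp [Ne.symm hs]
    · simp
  rw [hL, hR] at h
  exact h

theorem core {a b : ℕ} (i0 : Fin a) (k0 : Fin b) (M M' : Matrix (Fin a × Fin b) (Fin a × Fin b) F)
    (h1 : M * M' = 1) (h2 : M' * M = 1)
    (hh : ∀ X : Matrix (Fin a) (Fin a) F, ∃ Y : Matrix (Fin a) (Fin a) F,
      M * (X ⊗ₖ (1 : Matrix (Fin b) (Fin b) F)) * M' = Y ⊗ₖ (1 : Matrix (Fin b) (Fin b) F)) :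
    ∃ (g : GL (Fin a) F) (c : GL (Fin b) F), M = (g : Matrix _ _ F) ⊗ₖ (c : Matrix _ _ F) := by
  choose φ hφ using hh
  let φl : Matrix (Fin a) (Fin a) F →ₗ[F] Matrix (Fin a) (Fin a) F :=
    { toFun := φ
      map_add' := fun X Y => kron_one_injective k0 (by
        rw [← hφ, Matrix.add_kronecker, Matrix.mul_add, Matrix.add_mul, hφ, hφ, Matrix.add_kronecker])
      map_smul' := fun c X => kron_one_injective k0 (by
        rw [← hφ, Matrix.smul_kronecker, Matrix.mul_smul, Matrix.smul_mul, hφ, RingHom.id_apply,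
          Matrix.smul_kronecker]) }
  have hone : φl 1 = 1 := kron_one_injective k0 (by
    change φ 1 ⊗ₖ (1 : Matrix (Fin b) (Fin b) F) = _
    rw [← hφ, Matrix.one_kronecker_one, mul_one, h1])
  have hmul : ∀ X Y, φl (X * Y) = φl X * φl Y := fun X Y => kron_one_injective k0 (by
    change φ (X * Y) ⊗ₖ (1 : Matrix (Fin b) (Fin b) F) = (φ X * φ Y) ⊗ₖ (1 : Matrix (Fin b) (Fin b) F)
    have h3 : (φ X * φ Y) ⊗ₖ (1 : Matrix (Fin b) (Fin b) F) =
        (φ X ⊗ₖ (1 : Matrix (Fin b) (Fin b) F)) * (φ Y ⊗ₖ (1 : Matrix (Fin b) (Fin b) F)) := by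
      rw [← Matrix.mul_kronecker_mul, mul_one]
    have h4 : (X * Y) ⊗ₖ (1 : Matrix (Fin b) (Fin b) F) =
        (X ⊗ₖ (1 : Matrix (Fin b) (Fin b) F)) * (Y ⊗ₖ (1 : Matrix (Fin b) (Fin b) F)) := by
      rw [← Matrix.mul_kronecker_mul, mul_one]
    rw [h3, ← hφ, ← hφ, ← hφ, h4]
    calc M * (X ⊗ₖ (1 : Matrix (Fin b) (Fin b) F) * Y ⊗ₖ (1 : Matrix (Fin b) (Fin b) F)) * M'
        = M * X ⊗ₖ (1 : Matrix (Fin b) (Fin b) F) * 1 * (Y ⊗ₖ (1 : Matrix (Fin b) (Fin b) F)) * M' := by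
          simp only [mul_one, mul_assoc]
      _ = _ := by rw [← h2]; simp only [mul_assoc])
  let φa : Matrix (Fin a) (Fin a) F →ₐ[F] Matrix (Fin a) (Fin a) F := AlgHom.ofLinearMap φl hone hmul
  have hinj : Function.Injective φl := by
    rw [← LinearMap.ker_eq_bot, LinearMap.ker_eq_bot']
    intro X hX
    have h3 : φ X = 0 := hX
    have h4 := hφ X
    rw [h3, Matrix.zero_kronecker] at h4
    apply kron_one_injective (b := b) k0
    rw [Matrix.zero_kronecker]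
    calc X ⊗ₖ (1 : Matrix (Fin b) (Fin b) F)
        = (M' * M) * X ⊗ₖ (1 : Matrix (Fin b) (Fin b) F) * (M' * M) := by rw [h2, one_mul, mul_one]
      _ = M' * (M * X ⊗ₖ (1 : Matrix (Fin b) (Fin b) F) * M') * M := by simp only [mul_assoc]
      _ = 0 := by rw [h4, mul_zero, zero_mul]
  have hsurj : Function.Surjective φl := LinearMap.injective_iff_surjective.mp hinj
  let φe : Matrix (Fin a) (Fin a) F ≃ₐ[F] Matrix (Fin a) (Fin a) F :=
    AlgEquiv.ofBijective φa ⟨hinj, hsurj⟩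
  obtain ⟨g, hg⟩ := skolem_noether φe
  have hg' : ∀ X, φ X = (g : Matrix _ _ F) * X * ((g⁻¹ : GL _ F) : Matrix _ _ F) := hg
  set Kg : Matrix (Fin a × Fin b) (Fin a × Fin b) F :=
    (g : Matrix _ _ F) ⊗ₖ (1 : Matrix (Fin b) (Fin b) F) with hKg
  set Kg' : Matrix (Fin a × Fin b) (Fin a × Fin b) F :=
    ((g⁻¹ : GL _ F) : Matrix _ _ F) ⊗ₖ (1 : Matrix (Fin b) (Fin b) F) with hKg'
  have hk1 : Kg * Kg' = 1 := by
    rw [hKg, hKg', ← Matrix.mul_kronecker_mul, ← Units.val_mul, mul_inv_cancel, Units.val_one, mul_one,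
      Matrix.one_kronecker_one]
  have hk2 : Kg' * Kg = 1 := by
    rw [hKg, hKg', ← Matrix.mul_kronecker_mul, ← Units.val_mul, inv_mul_cancel, Units.val_one, mul_one,
      Matrix.one_kronecker_one]
  have hMX : ∀ X : Matrix (Fin a) (Fin a) F, M * X ⊗ₖ (1 : Matrix (Fin b) (Fin b) F) =
      Kg * X ⊗ₖ (1 : Matrix (Fin b) (Fin b) F) * Kg' * M := by
    intro X
    have h3 : Kg * X ⊗ₖ (1 : Matrix (Fin b) (Fin b) F) * Kg' = φ X ⊗ₖ (1 : Matrix (Fin b) (Fin b) F) := by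
      rw [hg', hKg, hKg', ← Matrix.mul_kronecker_mul, ← Matrix.mul_kronecker_mul, mul_one, mul_one]
    rw [h3, ← hφ, mul_assoc, mul_assoc, h2, mul_one]
  obtain ⟨c, hc⟩ := commute_kron i0 (Kg' * M) (by
    intro X
    rw [mul_assoc, hMX]
    calc Kg' * (Kg * X ⊗ₖ (1 : Matrix (Fin b) (Fin b) F) * Kg' * M)
        = (Kg' * Kg) * X ⊗ₖ (1 : Matrix (Fin b) (Fin b) F) * (Kg' * M) := by simp only [mul_assoc]
      _ = _ := by rw [hk2, one_mul])
  have hM : M = (g : Matrix _ _ F) ⊗ₖ c := by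
    calc M = (Kg * Kg') * M := by rw [hk1, one_mul]
      _ = Kg * (Kg' * M) := by rw [mul_assoc]
      _ = _ := by rw [hc, hKg, ← Matrix.mul_kronecker_mul, mul_one, one_mul]
  have hdet : c.det ≠ 0 := by
    intro h0
    have h3 : M.det * M'.det = 1 := by rw [← Matrix.det_mul, h1, Matrix.det_one]
    rw [hM, Matrix.det_kronecker, h0, zero_pow (by simpa using i0.pos.ne' ), mul_zero, zero_mul] at h3
    exact zero_ne_one h3
  exact ⟨g, Matrix.GeneralLinearGroup.mkOfDetNeZero c hdet, hM⟩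

/-- L6 -/
theorem mem_tensorProductSubgroup {a b : ℕ} (e : ι ≃ Fin a × Fin b) (P h : GL ι F)
    (hh : ∀ X : Matrix (Fin a) (Fin a) F, ∃ Y : Matrix (Fin a) (Fin a) F,
      (h : Matrix ι ι F) * embL e P X * ((h⁻¹ : GL ι F) : Matrix ι ι F) = embL e P Y) :
    h ∈ tensorProductSubgroup a b e P := by
  by_cases hι : IsEmpty ι
  · have : h = 1 := by
      apply Units.ext
      ext i
      exact (hι.false i).elim
    rw [this]; exact Subgroup.one_mem _
  rw [not_isEmpty_iff] at hι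
  obtain ⟨x0⟩ := hι
  let R : Matrix (Fin a × Fin b) (Fin a × Fin b) F ≃ₐ[F] Matrix ι ι F := Matrix.reindexAlgEquiv F F e.symm
  have hemb : ∀ X, embL e P X = (P : Matrix ι ι F) * R (X ⊗ₖ (1 : Matrix (Fin b) (Fin b) F)) *
      ((P⁻¹ : GL ι F) : Matrix ι ι F) := fun X => rfl
  have hPP : ((P⁻¹ : GL ι F) : Matrix ι ι F) * (P : Matrix ι ι F) = 1 := by
    rw [← Units.val_mul, inv_mul_cancel, Units.val_one]
  have hPP' : (P : Matrix ι ι F) * ((P⁻¹ : GL ι F) : Matrix ι ι F) = 1 := by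
    rw [← Units.val_mul, mul_inv_cancel, Units.val_one]
  obtain ⟨g, c, hgc⟩ := core (e x0).1 (e x0).2
    (R.symm (((P⁻¹ * h * P : GL ι F)) : Matrix ι ι F)) (R.symm (((P⁻¹ * h⁻¹ * P : GL ι F)) : Matrix ι ι F))
    (by rw [← map_mul, ← Units.val_mul]
        have : P⁻¹ * h * P * (P⁻¹ * h⁻¹ * P) = 1 := by group
        rw [this, Units.val_one, map_one])
    (by rw [← map_mul, ← Units.val_mul]
        have : (P⁻¹ * h⁻¹ * P) * (P⁻¹ * h * P) = 1 := by group
        rw [this, Units.val_one, map_one])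
    (by
      intro X
      obtain ⟨Y, hY⟩ := hh X
      refine ⟨Y, ?_⟩
      apply R.injective
      rw [map_mul, map_mul, AlgEquiv.apply_symm_apply, AlgEquiv.apply_symm_apply]
      rw [hemb, hemb] at hY
      simp only [Units.val_mul]
      calc ((P⁻¹ : GL ι F) : Matrix ι ι F) * (h : Matrix ι ι F) * (P : Matrix ι ι F) *
            R (X ⊗ₖ (1 : Matrix (Fin b) (Fin b) F)) *
            (((P⁻¹ : GL ι F) : Matrix ι ι F) * ((h⁻¹ : GL ι F) : Matrix ι ι F) * (P : Matrix ι ι F))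
          = ((P⁻¹ : GL ι F) : Matrix ι ι F) * ((h : Matrix ι ι F) * ((P : Matrix ι ι F) *
            R (X ⊗ₖ (1 : Matrix (Fin b) (Fin b) F)) * ((P⁻¹ : GL ι F) : Matrix ι ι F)) *
            ((h⁻¹ : GL ι F) : Matrix ι ι F)) * (P : Matrix ι ι F) := by simp only [mul_assoc]
        _ = (((P⁻¹ : GL ι F) : Matrix ι ι F) * (P : Matrix ι ι F)) *
            R (Y ⊗ₖ (1 : Matrix (Fin b) (Fin b) F)) *
            (((P⁻¹ : GL ι F) : Matrix ι ι F) * (P : Matrix ι ι F)) := by rw [hY]; simp only [mul_assoc]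
        _ = _ := by rw [hPP, one_mul, mul_one])
  rw [mem_tensor_iff]
  refine ⟨g, c, ?_⟩
  have h5 : Matrix.reindex e.symm e.symm ((g : Matrix _ _ F) ⊗ₖ (c : Matrix _ _ F)) =
      ((P⁻¹ * h * P : GL ι F) : Matrix ι ι F) := by
    rw [← hgc]
    exact R.apply_symm_apply _
  rw [h5, ← Units.val_mul, ← Units.val_mul]
  congr 1
  group

end Cfsg.Agent.Lib.Helper35.Asch
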