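import Cfsg.Agent.Lib.Helper13.Asch.Defs
import Cfsg.Agent.Lib.Helper35.Asch.Kron

set_option autoImplicit false

namespace Cfsg.Agent.Lib.Helper35.Asch

open Cfsg Cfsg.Geo Matrix Cfsg.Agent.Lib.Helper13.Asch
open scoped Kronecker MatrixGroups

variable {ι : Type} [Fintype ι] [DecidableEq ι] {F : Type*} [Field F]

theorem reindex_swap {a b : ℕ} (e : ι ≃ Fin a × Fin b) (x : Matrix (Fin a) (Fin a) F)
    (y : Matrix (Fin b) (Fin b) F) :
    Matrix.reindex e.symm e.symm (x ⊗ₖ y) =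
      Matrix.reindex (e.trans (Equiv.prodComm _ _)).symm (e.trans (Equiv.prodComm _ _)).symm (y ⊗ₖ x) := by
  ext i j
  simp [Matrix.kroneckerMap_apply, mul_comm]

/-- L7a -/
theorem tensor_swap {a b : ℕ} (e : ι ≃ Fin a × Fin b) (P : GL ι F) :
    tensorProductSubgroup a b e P = tensorProductSubgroup b a (e.trans (Equiv.prodComm _ _)) P := by
  ext h
  rw [mem_tensor_iff, mem_tensor_iff]
  constructor
  · rintro ⟨x, y, hxy⟩
    exact ⟨y, x, by rw [hxy, reindex_swap]⟩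
  · rintro ⟨y, x, hxy⟩
    exact ⟨x, y, by rw [hxy, ← reindex_swap]⟩

/-- L7b -/
theorem tensor_le_wreath {m : ℕ} (e : ι ≃ Fin m × Fin m) (P : GL ι F) :
    ∃ e' : ι ≃ (Fin 2 → Fin m), tensorProductSubgroup m m e P ≤ tensorWreathSubgroup m 2 e' P := by
  refine ⟨e.trans (finTwoArrowEquiv (Fin m)).symm, ?_⟩
  intro h hh
  rw [mem_tensor_iff] at hh
  obtain ⟨x, y, hxy⟩ := hh
  refine ⟨_, ⟨glReindex (finTwoArrowEquiv (Fin m)).symm (kronGL x y), ?_, rfl⟩, ?_⟩
  · apply Subgroup.subset_closure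
    left
    refine ⟨![x, y], ?_⟩
    intro u v
    rw [Fin.prod_univ_two]
    rfl
  · apply Units.ext
    rw [hxy]
    rfl

end Cfsg.Agent.Lib.Helper35.Asch
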