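import Cfsg.Agent.Lib.Helper13.Asch.Defs
import Cfsg.Agent.Lib.Helper35.Asch.Kron

set_option autoImplicit false

namespace Cfsg.Agent.Lib.Helper35.Asch

open Cfsg Cfsg.Geo Matrix Cfsg.Agent.Lib.Helper13.Asch
open scoped Kronecker MatrixGroups

variable {ι : Type} [Fintype ι] [DecidableEq ι] {F : Type*} [Field F]

/-- coordinates -/
def crd (e : ι ≃ Fin 2 × Fin 2) (P : GL ι F) (x : ι → F) (p : Fin 2 × Fin 2) : F :=
  (((P⁻¹ : GL ι F) : Matrix ι ι F) *ᵥ x) (e.symm p)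

theorem crd_add (e : ι ≃ Fin 2 × Fin 2) (P : GL ι F) (x y : ι → F) (p : Fin 2 × Fin 2) :
    crd e P (x + y) p = crd e P x p + crd e P y p := by
  simp [crd, Matrix.mulVec_add]

theorem crd_smul (e : ι ≃ Fin 2 × Fin 2) (P : GL ι F) (c : F) (x : ι → F) (p : Fin 2 × Fin 2) :
    crd e P (c • x) p = c * crd e P x p := by
  simp [crd, Matrix.mulVec_smul]

theorem crd_single (e : ι ≃ Fin 2 × Fin 2) (P : GL ι F) (p q : Fin 2 × Fin 2) :
    crd e P ((P : Matrix ι ι F) *ᵥ Pi.single (e.symm p) 1) q = if q = p then 1 else 0 := by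
  rw [crd, Matrix.mulVec_mulVec, ← Units.val_mul, inv_mul_cancel, Units.val_one, Matrix.one_mulVec,
    Pi.single_apply]
  simp

theorem crd_ne_zero (e : ι ≃ Fin 2 × Fin 2) (P : GL ι F) (x : ι → F) (hx : x ≠ 0) :
    ∃ p, crd e P x p ≠ 0 := by
  by_contra hcon
  push Not at hcon
  apply hx
  have h1 : ((P⁻¹ : GL ι F) : Matrix ι ι F) *ᵥ x = 0 := by
    ext i
    have := hcon (e i)
    rwa [crd, Equiv.symm_apply_apply] at this
  have h2 := congrArg (fun v => (P : Matrix ι ι F) *ᵥ v) h1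
  simp only [Matrix.mulVec_mulVec, Matrix.mulVec_zero] at h2
  rwa [← Units.val_mul, mul_inv_cancel, Units.val_one, Matrix.one_mulVec] at h2

/-- the determinant form -/
def detQ (e : ι ≃ Fin 2 × Fin 2) (P : GL ι F) (x : ι → F) : F :=
  crd e P x (0, 0) * crd e P x (1, 1) - crd e P x (0, 1) * crd e P x (1, 0)

theorem polar_detQ (e : ι ≃ Fin 2 × Fin 2) (P : GL ι F) (u v : ι → F) :
    QuadraticMap.polar (detQ e P) u v =
      crd e P u (0, 0) * crd e P v (1, 1) + crd e P v (0, 0) * crd e P u (1, 1)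
        - crd e P u (0, 1) * crd e P v (1, 0) - crd e P v (0, 1) * crd e P u (1, 0) := by
  simp only [QuadraticMap.polar, detQ, crd_add]
  ring

theorem polar_detQ_comm (e : ι ≃ Fin 2 × Fin 2) (P : GL ι F) (u v : ι → F) :
    QuadraticMap.polar (detQ e P) u v = QuadraticMap.polar (detQ e P) v u := by
  rw [polar_detQ, polar_detQ]; ring

theorem exists_polar_ne (e : ι ≃ Fin 2 × Fin 2) (P : GL ι F) (v : ι → F) (hv : v ≠ 0) :
    ∃ x, QuadraticMap.polar (detQ e P) x v ≠ 0 := by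
  obtain ⟨⟨p, q⟩, hp⟩ := crd_ne_zero e P v hv
  refine ⟨(P : Matrix ι ι F) *ᵥ Pi.single (e.symm (1 - p, 1 - q)) 1, ?_⟩
  rw [polar_detQ]
  simp only [crd_single]
  fin_cases p <;> fin_cases q <;> simpa using hp

theorem crd_tensor (e : ι ≃ Fin 2 × Fin 2) (P h : GL ι F) (a b : Matrix (Fin 2) (Fin 2) F)
    (hh : (h : Matrix ι ι F) = (P : Matrix ι ι F) * Matrix.reindex e.symm e.symm (a ⊗ₖ b) *
        ((P⁻¹ : GL ι F) : Matrix ι ι F)) (x : ι → F) (p : Fin 2 × Fin 2) :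
    crd e P ((h : Matrix ι ι F) *ᵥ x) p = ∑ s : Fin 2, ∑ t : Fin 2, a p.1 s * b p.2 t * crd e P x (s, t) := by
  rw [crd, hh, Matrix.mulVec_mulVec, ← mul_assoc, ← mul_assoc, ← Units.val_mul, inv_mul_cancel,
    Units.val_one, one_mul, ← Matrix.mulVec_mulVec]
  rw [Matrix.mulVec, dotProduct, ← Fintype.sum_prod_type']
  rw [← Equiv.sum_comp e.symm]
  apply Finset.sum_congr rfl
  rintro ⟨s, t⟩ _
  simp [crd, Matrix.kroneckerMap_apply]

/-- L7c -/
theorem tensor_two_two (e : ι ≃ Fin 2 × Fin 2) (P : GL ι F) :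
    ∃ Q : (ι → F) → F, IsNondegenerateQuadraticForm Q ∧
      tensorProductSubgroup 2 2 e P ≤ quadSimilarityGroup Q := by
  refine ⟨detQ e P, ⟨?_, ⟨?_, ?_, ?_, ?_⟩, ?_⟩, ?_⟩
  · intro c v
    simp only [detQ, crd_smul]; ring
  · intro x y v
    simp only [polar_detQ, crd_add]; ring
  · intro c x v
    simp only [polar_detQ, crd_smul]; ring
  · intro v x y
    simp only [polar_detQ, crd_add]; ring
  · intro c v x
    simp only [polar_detQ, crd_smul]; ring
  · intro v hv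
    obtain ⟨x, hx⟩ := exists_polar_ne e P v hv
    exact ⟨⟨x, hx⟩, ⟨x, by rwa [polar_detQ_comm]⟩⟩
  · intro h hh
    rw [mem_tensor_iff] at hh
    obtain ⟨a, b, hab⟩ := hh
    refine ⟨Matrix.GeneralLinearGroup.det a * Matrix.GeneralLinearGroup.det b, ?_⟩
    intro v
    simp only [detQ, crd_tensor e P h _ _ hab, Fin.sum_univ_two, Units.val_mul,
      Matrix.GeneralLinearGroup.val_det_apply, Matrix.det_fin_two]
    ring

end Cfsg.Agent.Lib.Helper35.Asch
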